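import Mathlib

/-!
Two commuting point families in a doubly transitive group: a TI family whose members commute
with a simple family is semiregular.
-/

set_option autoImplicit false

namespace CfsgOA

open MulAction

variable {G Ω : Type*} [Group G] [MulAction G Ω]

/-- A conjugation-invariant family of subgroups of the point stabilisers. -/
structure PF (K : Ω → Subgroup G) : Prop where
  fix : ∀ x, ∀ k ∈ K x, k • x = x
  cj : ∀ (g : G) x, ∀ k ∈ K x, g * k * g⁻¹ ∈ K (g • x)

/-- Double transitivity, elementwise. -/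
def Two (G Ω : Type*) [Group G] [MulAction G Ω] : Prop :=
  ∀ x y x' y' : Ω, x ≠ y → x' ≠ y' → ∃ g : G, g • x = x' ∧ g • y = y'

/-- Trivial intersections. -/
def TI (K : Ω → Subgroup G) : Prop := ∀ x y, x ≠ y → ∀ k ∈ K x, k ∈ K y → k = 1

theorem PF.cj' {K : Ω → Subgroup G} (h : PF K) {g : G} {x y : Ω} (e : g • x = y) {k : G}
    (hk : k ∈ K x) : g * k * g⁻¹ ∈ K y := e ▸ h.cj g x k hk

theorem PF.card_eq {K : Ω → Subgroup G} (h : PF K) (two : Two G Ω) {x y x' y' : Ω}
    (n : x ≠ y) (n' : x' ≠ y') :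
    Nat.card ↥(K x ⊓ stabilizer G y) = Nat.card ↥(K x' ⊓ stabilizer G y') := by
  obtain ⟨g, gx, gy⟩ := two x y x' y' n n'
  have ix : g⁻¹ • x' = x := by rw [← gx, inv_smul_smul]
  have iy : g⁻¹ • y' = y := by rw [← gy, inv_smul_smul]
  refine Nat.card_congr
    { toFun := fun k => ⟨g * k * g⁻¹, h.cj' gx k.2.1, ?_⟩
      invFun := fun k => ⟨g⁻¹ * k * g⁻¹⁻¹, h.cj' ix k.2.1, ?_⟩
      left_inv := fun k => Subtype.ext (by simp [mul_assoc])
      right_inv := fun k => Subtype.ext (by simp [mul_assoc]) }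
  · have := mem_stabilizer_iff.1 k.2.2
    change (g * k * g⁻¹) • y' = y'
    rw [mul_smul, mul_smul, iy, this, gy]
  · have := mem_stabilizer_iff.1 k.2.2
    change (g⁻¹ * k * g⁻¹⁻¹) • y = y
    rw [mul_smul, mul_smul, inv_inv, gy, this, iy]

/-- In a TI family the centraliser of a nontrivial member fixes its point. -/
theorem PF.cen_fix {K : Ω → Subgroup G} (h : PF K) (ti : TI K) {x : Ω} {k c : G}
    (hk : k ∈ K x) (k1 : k ≠ 1) (hc : c * k = k * c) : c • x = x := by
  by_contra ne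
  have : c * k * c⁻¹ ∈ K (c • x) := h.cj c x k hk
  rw [hc, mul_inv_cancel_right] at this
  exact k1 (ti _ _ ne k this hk)

/-- A TI family commuting with a simple family that moves points is semiregular. -/
theorem TI_semireg [Finite G] {K N : Ω → Subgroup G} (hK : PF K) (hN : PF N)
    (comm : ∀ x, ∀ k ∈ K x, ∀ n ∈ N x, k * n = n * k) (two : Two G Ω)
    (simp : ∀ x, IsSimpleGroup (N x))
    (moves : ∀ x y, x ≠ y → ∃ n ∈ N x, n • y ≠ y) (ti : TI K)
    {x y : Ω} (xy : x ≠ y) {k : G} (hk : k ∈ K x) (ky : k • y = y) : k = 1 := by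
  classical
  by_contra k1
  -- `d ≤ b1`
  have key : ∀ n ∈ N x, n • y ≠ y → ∀ c ∈ K y, c • n • y = n • y → c • x = x := by
    intro n hn ny c hc cy
    by_contra cx
    have cardeq := hK.card_eq two xy (Ne.symm ny)
    let f : ↥(K x ⊓ stabilizer G y) → ↥(K y ⊓ stabilizer G (n • y)) := fun u =>
      ⟨u * c * u⁻¹, hK.cj' (mem_stabilizer_iff.1 u.2.2) hc, by
        have h1 : (u : G) • n • y = n • y := by
          rw [← mul_smul, comm x u u.2.1 n hn, mul_smul, mem_stabilizer_iff.1 u.2.2]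
        have h2 : (u : G)⁻¹ • n • y = n • y := by rw [inv_smul_eq_iff, h1]
        change ((u : G) * c * (u : G)⁻¹) • n • y = n • y
        rw [mul_smul, mul_smul, h2, cy, h1]⟩
    have finj : Function.Injective f := by
      intro u v e
      have e' : (u : G) * c * (u : G)⁻¹ = v * c * (v : G)⁻¹ := congrArg Subtype.val e
      by_contra ne
      have w1 : (v : G)⁻¹ * u ≠ 1 := fun h => ne (Subtype.ext (inv_mul_eq_one.1 h).symm)
      have hw : (v : G)⁻¹ * u ∈ K x := (K x).mul_mem ((K x).inv_mem v.2.1) u.2.1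
      refine cx (hK.cen_fix ti hw w1 ?_)
      calc c * ((v : G)⁻¹ * u) = (v : G)⁻¹ * (v * c * (v : G)⁻¹) * u := by group
        _ = (v : G)⁻¹ * u * c := by rw [← e']; group
    have fsurj : Function.Surjective f :=
      ((Nat.bijective_iff_injective_and_card f).2 ⟨finj, cardeq⟩).2
    obtain ⟨u, hu⟩ := fsurj 1
    have : (u : G) * c * (u : G)⁻¹ = 1 := congrArg Subtype.val hu
    have c1 : c = 1 := by
      calc c = (u : G)⁻¹ * (u * c * (u : G)⁻¹) * u := by group
        _ = 1 := by rw [this]; group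
    exact cx (by rw [c1, one_smul])
  -- `d = b1`
  have key2 : ∀ n ∈ N x, ∀ c ∈ K y, c • x = x → c • n • y = n • y := by
    intro n hn c hc cx
    by_cases ny : n • y = y
    · rw [ny]; exact hK.fix y c hc
    have le : K y ⊓ stabilizer G (n • y) ≤ K y ⊓ stabilizer G x := fun c hc =>
      ⟨hc.1, key n hn ny c hc.1 (mem_stabilizer_iff.1 hc.2)⟩
    have := Subgroup.eq_of_le_of_card_ge le (hK.card_eq two xy.symm (Ne.symm ny)).le
    have h : c ∈ K y ⊓ stabilizer G (n • y) := this ▸ (⟨hc, cx⟩ : c ∈ K y ⊓ stabilizer G x)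
    exact mem_stabilizer_iff.1 h.2
  obtain ⟨g, gx, gy⟩ := two x y y x xy xy.symm
  have hb : g * k * g⁻¹ ∈ K y := hK.cj' gx hk
  have bx : (g * k * g⁻¹) • x = x := by
    rw [mul_smul, mul_smul, ← gy, inv_smul_smul, ky]
  have b1 : g * k * g⁻¹ ≠ 1 := fun h => k1 (by
    calc k = g⁻¹ * (g * k * g⁻¹) * g := by group
      _ = 1 := by rw [h]; group)
  generalize g * k * g⁻¹ = b at hb bx b1
  let R : Subgroup (N x) :=
    { carrier := {r | ∀ m ∈ N x, (r : G) • m • y = m • y}
      mul_mem' := fun {r s} hr hs m hm => by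
        rw [Subgroup.coe_mul, mul_smul, hs m hm, hr m hm]
      one_mem' := fun m _ => by simp
      inv_mem' := fun {r} hr m hm => by
        rw [Subgroup.coe_inv, inv_smul_eq_iff, hr m hm] }
  have Rn : R.Normal := ⟨fun r hr s m hm => by
    have := hr ((s : G)⁻¹ * m) ((N x).mul_mem ((N x).inv_mem s.2) hm)
    change ((s : G) * r * (s : G)⁻¹) • m • y = m • y
    rw [mul_smul] at this
    rw [mul_smul, mul_smul, this, smul_inv_smul]⟩
  obtain ⟨n, hn, ny⟩ := moves x y xy
  haveI := simp x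
  rcases Rn.eq_bot_or_eq_top with hR | hR
  · have hm : b * n * b⁻¹ * n⁻¹ ∈ N x := (N x).mul_mem (hN.cj' bx hn) ((N x).inv_mem hn)
    have : (⟨_, hm⟩ : N x) ∈ R := fun m hm' => by
      have h1 := key2 (n⁻¹ * m) ((N x).mul_mem ((N x).inv_mem hn) hm') b hb bx
      have h2 : b⁻¹ • (n⁻¹ * m) • y = (n⁻¹ * m) • y := by rw [inv_smul_eq_iff, h1]
      rw [mul_smul] at h2
      change (b * n * b⁻¹ * n⁻¹) • m • y = m • y
      rw [mul_smul, mul_smul, mul_smul, h2, smul_inv_smul, key2 m hm' b hb bx]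
    rw [hR, Subgroup.mem_bot] at this
    have e : b * n * b⁻¹ * n⁻¹ = 1 := congrArg Subtype.val this
    refine ny (hK.cen_fix ti hb b1 ?_)
    calc n * b = (b * n * b⁻¹ * n⁻¹) * (n * b) := by rw [e, one_mul]
      _ = b * n := by group
  · have : (⟨n, hn⟩ : N x) ∈ R := hR ▸ Subgroup.mem_top _
    have := this 1 (N x).one_mem
    simp only [one_smul] at this
    exact ny this

end CfsgOA
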