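import Cfsg.Agent.H4.OA1

/-!
Lines of a point family; of two commuting simple families one is semiregular.
-/

set_option autoImplicit false

namespace CfsgOA

open MulAction

variable {G Ω : Type*} [Group G] [MulAction G Ω]

theorem PF.card_eq2 {A B : Ω → Subgroup G} (hA : PF A) (hB : PF B) (two : Two G Ω)
    {x y x' y' : Ω} (n : x ≠ y) (n' : x' ≠ y') :
    Nat.card ↥(A x ⊓ B y) = Nat.card ↥(A x' ⊓ B y') := by
  obtain ⟨g, gx, gy⟩ := two x y x' y' n n'
  have ix : g⁻¹ • x' = x := by rw [← gx, inv_smul_smul]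
  have iy : g⁻¹ • y' = y := by rw [← gy, inv_smul_smul]
  exact Nat.card_congr
    { toFun := fun k => ⟨g * k * g⁻¹, hA.cj' gx k.2.1, hB.cj' gy k.2.2⟩
      invFun := fun k => ⟨g⁻¹ * k * g⁻¹⁻¹, hA.cj' ix k.2.1, hB.cj' iy k.2.2⟩
      left_inv := fun k => Subtype.ext (by simp [mul_assoc])
      right_inv := fun k => Subtype.ext (by simp [mul_assoc]) }

/-- Two points of a line determine the same line. -/
theorem PF.line_eq [Finite G] {N : Ω → Subgroup G} (hN : PF N) (two : Two G Ω)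
    {x y z w : Ω} (xy : x ≠ y) (zw : z ≠ w) (hz : N x ⊓ N y ≤ N z) (hw : N x ⊓ N y ≤ N w) :
    N x ⊓ N y = N z ⊓ N w :=
  Subgroup.eq_of_le_of_card_ge (le_inf hz hw) (hN.card_eq2 hN two zw xy).le

theorem PF.line_smul {N : Ω → Subgroup G} (hN : PF N) {x y z : Ω} (g : G)
    (hz : N x ⊓ N y ≤ N z) : N (g • x) ⊓ N (g • y) ≤ N (g • z) := by
  intro n hn
  have h1 : g⁻¹ * n * g⁻¹⁻¹ ∈ N x := hN.cj' (inv_smul_smul g x) hn.1
  have h2 : g⁻¹ * n * g⁻¹⁻¹ ∈ N y := hN.cj' (inv_smul_smul g y) hn.2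
  have := hN.cj g z _ (hz ⟨h1, h2⟩)
  simpa [mul_assoc] using this

/-- An element fixing all lines through two points is trivial. -/
theorem PF.two_centres [Finite G] [FaithfulSMul G Ω] {N : Ω → Subgroup G} (hN : PF N)
    (two : Two G Ω) (nti : ¬ TI N) {x y : Ω} (xy : x ≠ y) {k : G}
    (kx : k • x = x) (ky : k • y = y)
    (lx : ∀ z, N x ⊓ N z ≤ N (k • z)) (ly : ∀ z, N y ⊓ N z ≤ N (k • z)) : k = 1 := by
  have off : ∀ z, ¬ N x ⊓ N y ≤ N z → k • z = z := by
    intro z hz
    by_contra ne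
    have zx : x ≠ z := fun e => hz (e ▸ inf_le_left)
    have zy : y ≠ z := fun e => hz (e ▸ inf_le_right)
    have e1 := hN.line_eq two zx ne (lx z) inf_le_right
    have e2 := hN.line_eq two zy ne (ly z) inf_le_right
    have e3 : N x ⊓ N z = N x ⊓ N y :=
      hN.line_eq two zx xy inf_le_left (by rw [e1, ← e2]; exact inf_le_left)
    exact hz (e3 ▸ inf_le_right)
  have ex : ∃ z, ¬ N x ⊓ N y ≤ N z := by
    by_contra h
    push Not at h
    refine nti fun u v uv n hu hv => ?_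
    have e := hN.line_eq two xy uv (h u) (h v)
    have hn : n ∈ N x ⊓ N y := e ▸ (⟨hu, hv⟩ : n ∈ N u ⊓ N v)
    exact eq_of_smul_eq_smul fun z : Ω => by rw [one_smul]; exact hN.fix z n (h z hn)
  obtain ⟨z, hz⟩ := ex
  refine eq_of_smul_eq_smul fun w : Ω => ?_
  rw [one_smul]
  by_contra ne
  have hw : N x ⊓ N y ≤ N w := by
    by_contra h
    exact ne (off w h)
  have wx : w ≠ x := fun e => ne (e ▸ kx)
  have wy : w ≠ y := fun e => ne (e ▸ ky)
  have zw : z ≠ w := fun e => hz (e ▸ hw)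
  obtain ⟨g, gx, gy⟩ := two x y z w xy zw
  have hu : N z ⊓ N w ≤ N (g • w) := by
    have := hN.line_smul g hw
    rwa [gx, gy] at this
  have uz : g • w ≠ z := fun e => wx ((smul_left_cancel_iff g).1 (e.trans gx.symm))
  have uw : g • w ≠ w := fun e => wy ((smul_left_cancel_iff g).1 (e.trans gy.symm))
  generalize g • w = u at hu uz uw
  have uoff : ¬ N x ⊓ N y ≤ N u := fun h => by
    have e1 := hN.line_eq two xy uw h hw
    have e2 := hN.line_eq two zw uw hu inf_le_right
    exact hz (by rw [e1, ← e2]; exact inf_le_left)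
  have e3 : N z ⊓ N w = N z ⊓ N u := hN.line_eq two zw uz.symm inf_le_left hu
  have k1 : N z ⊓ N u ≤ N (k • w) := by
    have := hN.line_smul k (show N z ⊓ N u ≤ N w from e3 ▸ inf_le_right)
    rwa [off z hz, off u uoff] at this
  have k2 : N x ⊓ N y ≤ N (k • w) := by
    have := hN.line_smul k hw
    rwa [kx, ky] at this
  have e4 := hN.line_eq two xy ne k2 hw
  have e5 := hN.line_eq two zw ne (e3 ▸ k1) inf_le_right
  exact hz (by rw [e4, ← e5]; exact inf_le_left)

/-- If `N` is not TI then any family commuting with it is TI. -/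
theorem TI_of_not_TI [Finite G] [FaithfulSMul G Ω] {K N : Ω → Subgroup G} (hK : PF K)
    (hN : PF N) (comm : ∀ x, ∀ k ∈ K x, ∀ n ∈ N x, k * n = n * k) (two : Two G Ω)
    (nti : ¬ TI N) : TI K := by
  have l : ∀ x, ∀ k ∈ K x, ∀ z, N x ⊓ N z ≤ N (k • z) := fun x k hk z n hn => by
    have := hN.cj k z n hn.2
    rwa [comm x k hk n hn.1, mul_inv_cancel_right] at this
  exact fun x y xy k hx hy =>
    hN.two_centres two nti xy (hK.fix x k hx) (hK.fix y k hy) (l x k hx) (l y k hy)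

/-- Semiregularity of a family off its points. -/
def SR (K : Ω → Subgroup G) : Prop := ∀ x y, x ≠ y → ∀ k ∈ K x, k • y = y → k = 1

/-- A nontrivial family moves every other point. -/
theorem PF.moves [FaithfulSMul G Ω] {N : Ω → Subgroup G} (hN : PF N) (two : Two G Ω)
    (nb : ∀ x, N x ≠ ⊥) {x y : Ω} (xy : x ≠ y) : ∃ n ∈ N x, n • y ≠ y := by
  by_contra h
  push Not at h
  refine nb x ((Subgroup.eq_bot_iff_forall _).2 fun n hn => ?_)
  refine eq_of_smul_eq_smul fun z : Ω => ?_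
  rw [one_smul]
  by_cases zx : x = z
  · exact zx ▸ hN.fix x n hn
  obtain ⟨g, gx, gz⟩ := two x z x y zx xy
  have := h _ (hN.cj' gx hn)
  rw [← gz, mul_smul, mul_smul, inv_smul_smul] at this
  exact (smul_left_cancel_iff g).1 this

/-- Of two commuting simple families, one is semiregular. -/
theorem SR_or [Finite G] [FaithfulSMul G Ω] {K N : Ω → Subgroup G} (hK : PF K) (hN : PF N)
    (comm : ∀ x, ∀ k ∈ K x, ∀ n ∈ N x, k * n = n * k) (two : Two G Ω)
    (sK : ∀ x, IsSimpleGroup (K x)) (sN : ∀ x, IsSimpleGroup (N x)) : SR K ∨ SR N := by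
  have nb : ∀ {A : Ω → Subgroup G}, (∀ x, IsSimpleGroup (A x)) → ∀ x, A x ≠ ⊥ := fun s x =>
    (Subgroup.nontrivial_iff_ne_bot _).1 (s x).toNontrivial
  by_cases h : TI N
  · exact Or.inr fun x y xy k hk ky => TI_semireg hN hK
      (fun x n hn k hk => (comm x k hk n hn).symm) two sK
      (fun x y xy => hK.moves two (nb sK) xy) h xy hk ky
  · exact Or.inl fun x y xy k hk ky => TI_semireg hK hN comm two sN
      (fun x y xy => hN.moves two (nb sN) xy) (TI_of_not_TI hK hN comm two h) xy hk ky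

end CfsgOA
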