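import Cfsg.Agent.H4.OA2
import Cfsg.Agent.H4.QR1
import Cfsg.Prelude.Def_CaseTheorems

/-!
Reduction of the point stabiliser theorem to two configurations.
-/

set_option autoImplicit false

namespace CfsgOA

open MulAction Subgroup CfsgQR

variable {G Ω : Type*} [Group G] [MulAction G Ω]

/-- conjugate of a subgroup -/
abbrev cg (g : G) (T : Subgroup G) : Subgroup G := T.map (MulAut.conj g).toMonoidHom

theorem mem_cg {T : Subgroup G} {g x : G} : x ∈ cg g T ↔ g⁻¹ * x * g ∈ T := mem_conj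

theorem cg_cg (g h : G) (T : Subgroup G) : cg g (cg h T) = cg (g * h) T := by
  ext x; simp only [mem_cg, mul_inv_rev, mul_assoc]

theorem cg_one (T : Subgroup G) : cg 1 T = T := by
  ext x; simp only [mem_cg, inv_one, one_mul, mul_one]

theorem cg_simple {T : Subgroup G} (h : IsSimpleGroup T) (g : G) : IsSimpleGroup (cg g T) :=
  (T.equivMapOfInjective (MulAut.conj g).toMonoidHom (MulAut.conj g).injective).symm.isSimpleGroup

theorem card_cg (g : G) (T : Subgroup G) : Nat.card (cg g T) = Nat.card T :=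
  Nat.card_congr
    (T.equivMapOfInjective (MulAut.conj g).toMonoidHom (MulAut.conj g).injective).symm.toEquiv

theorem cg_eq_of_le [Finite G] {T : Subgroup G} {g : G} (h : ∀ t ∈ T, g * t * g⁻¹ ∈ T) :
    cg g T = T :=
  eq_of_le_of_card_ge (by rintro _ ⟨t, ht, rfl⟩; exact h t ht) (card_cg g T).ge

/-- non-commutativity, elementwise -/
def NC (T : Subgroup G) : Prop := ∃ a ∈ T, ∃ b ∈ T, a * b ≠ b * a

theorem NC.cg {T : Subgroup G} (h : NC T) (g : G) : NC (cg g T) := by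
  obtain ⟨a, ha, b, hb, ab⟩ := h
  refine ⟨g * a * g⁻¹, mem_cg.2 (by simpa [mul_assoc] using ha), g * b * g⁻¹,
    mem_cg.2 (by simpa [mul_assoc] using hb), fun e => ab ?_⟩
  calc a * b = g⁻¹ * (g * a * g⁻¹ * (g * b * g⁻¹)) * g := by group
    _ = b * a := by rw [e]; group

/-- A family of components: at each point at least two commuting simple groups, permuted
transitively by the point stabiliser. -/
structure CF (C : Ω → Set (Subgroup G)) : Prop where
  fix : ∀ x, ∀ T ∈ C x, ∀ t ∈ T, t • x = x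
  cj : ∀ (g : G) x, ∀ T ∈ C x, cg g T ∈ C (g • x)
  simple : ∀ x, ∀ T ∈ C x, IsSimpleGroup T
  nc : ∀ x, ∀ T ∈ C x, NC T
  comm : ∀ x, ∀ T ∈ C x, ∀ U ∈ C x, T ≠ U → ∀ t ∈ T, ∀ u ∈ U, t * u = u * t
  trans : ∀ x, ∀ T ∈ C x, ∀ U ∈ C x, ∃ g : G, g • x = x ∧ cg g T = U
  two : ∀ x, ∃ T ∈ C x, ∃ U ∈ C x, T ≠ U

theorem exists_min_le {H : Type*} [Group H] [Finite H] (A : Subgroup H) (hA : A.Normal)
    (h0 : A ≠ ⊥) : ∃ N : Subgroup H, N ≤ A ∧ N.Normal ∧ N ≠ ⊥ ∧
      ∀ M : Subgroup H, M.Normal → M ≠ ⊥ → M ≤ N → M = N := by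
  obtain ⟨N, hN, hmin⟩ := (wellFounded_lt (α := Subgroup H)).has_min
    {N | N ≤ A ∧ N.Normal ∧ N ≠ ⊥} ⟨A, le_rfl, hA, h0⟩
  exact ⟨N, hN.1, hN.2.1, hN.2.2, fun M h1 h2 h3 => by
    by_contra ne
    exact hmin M ⟨h3.trans hN.1, h1, h2⟩ (lt_of_le_of_ne h3 ne)⟩

theorem two_of (h2 : IsMultiplyPretransitive G Ω 2) : Two G Ω := fun _ _ _ _ n n' =>
  (is_two_pretransitive_iff.1 h2) n n'

/-- the family attached to a normal subgroup of a point stabiliser -/
theorem exists_PF [Nontrivial Ω] (two : Two G Ω) (a : Ω) (T : Subgroup G)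
    (hle : ∀ t ∈ T, t • a = a) (hn : ∀ g : G, g • a = a → cg g T = T) :
    ∃ K : Ω → Subgroup G, PF K ∧ ∀ g : G, K (g • a) = cg g T := by
  have tr : ∀ x : Ω, ∃ g : G, g • a = x := fun x => by
    obtain ⟨b, hb⟩ := exists_ne a
    obtain ⟨y, hy⟩ := exists_ne x
    obtain ⟨g, h, -⟩ := two a b x y hb.symm hy.symm
    exact ⟨g, h⟩
  choose s hs using tr
  have key : ∀ g : G, cg (s (g • a)) T = cg g T := fun g => by
    have := hn (g⁻¹ * s (g • a)) (by rw [mul_smul, hs, inv_smul_smul])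
    conv_rhs => rw [← this, cg_cg, mul_inv_cancel_left]
  refine ⟨fun x => cg (s x) T, ⟨fun x k hk => ?_, fun g x k hk => ?_⟩, key⟩
  · have := hle _ (mem_cg.1 hk)
    rw [mul_smul, mul_smul, hs, inv_smul_eq_iff, hs] at this
    exact this
  · have e : g • x = (g * s x) • a := by rw [mul_smul, hs]
    change _ ∈ cg (s (g • x)) T
    rw [e, key, ← cg_cg, mem_cg]
    simpa [mul_assoc] using hk

theorem reduction [Finite G] [FaithfulSMul G Ω] [Finite Ω] (hΩ : 3 ≤ Nat.card Ω)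
    (h2 : IsMultiplyPretransitive G Ω 2) (a : Ω)
    (P1 : ∀ K N : Ω → Subgroup G, PF K → PF N → (∀ x, ∀ k ∈ K x, ∀ n ∈ N x, k * n = n * k) →
      (∀ x, IsSimpleGroup (K x)) → (∀ x, IsSimpleGroup (N x)) → (∀ x, NC (K x)) →
      (∀ x, NC (N x)) → SR K → False)
    (P2 : ∀ C : Ω → Set (Subgroup G), CF C → False) :
    Cfsg.IsLocalSubgroup (stabilizer G a) ∨
    ∃ N : Subgroup (stabilizer G a), N.Normal ∧ IsSimpleGroup N ∧ ¬ IsMulCommutative N ∧
      centralizer (N : Set (stabilizer G a)) = ⊥ := by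
  classical
  by_contra hcon
  rw [not_or] at hcon
  obtain ⟨hloc, hno⟩ := hcon
  have two := two_of h2
  haveI : Nontrivial Ω := Finite.one_lt_card_iff_nontrivial.1 (by omega)
  have tr : ∀ x : Ω, ∃ g : G, g • a = x := fun x => by
    obtain ⟨b, hb⟩ := exists_ne a
    obtain ⟨y, hy⟩ := exists_ne x
    obtain ⟨g, h, -⟩ := two a b x y hb.symm hy.symm
    exact ⟨g, h⟩
  set H := stabilizer G a with hH
  -- `H` is nontrivial
  have Hnt : (⊤ : Subgroup H) ≠ ⊥ := by
    have := Fintype.ofFinite Ω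
    obtain ⟨b, hb⟩ := exists_ne a
    obtain ⟨c, ca, cb⟩ : ∃ c, c ≠ a ∧ c ≠ b := by
      by_contra h
      push Not at h
      have : (Finset.univ : Finset Ω) ⊆ {a, b} := fun c _ => by
        by_cases e : c = a
        · simp [e]
        · simp [h c e]
      have := (Finset.card_le_card this).trans Finset.card_le_two
      rw [Finset.card_univ, ← Nat.card_eq_fintype_card] at this
      omega
    obtain ⟨g, ga, gb⟩ := two a b a c hb.symm ca.symm
    intro e
    have : (⟨g, ga⟩ : H) ∈ (⊥ : Subgroup H) := e ▸ mem_top _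
    have : g = 1 := congrArg Subtype.val (mem_bot.1 this)
    exact cb (by rw [← gb, this, one_smul])
  -- minimal normal subgroups are non-abelian
  have nab : ∀ M : Subgroup H, M.Normal → M ≠ ⊥ →
      (∀ L : Subgroup H, L.Normal → L ≠ ⊥ → L ≤ M → L = M) → ¬ IsMulCommutative M := by
    intro M hM h0 hmin hab
    obtain ⟨r, hr, hp⟩ := CfsgH6.minNormal_exponent_prime M hM h0 hmin hab
    have hP : IsPGroup r (M.map H.subtype) := by
      rintro ⟨_, m, hm, rfl⟩
      exact ⟨1, Subtype.ext (by simpa using congrArg Subtype.val (hp m hm))⟩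
    have P0 : M.map H.subtype ≠ ⊥ := fun e =>
      h0 ((map_eq_bot_iff_of_injective _ H.subtype_injective).1 e)
    have hle : H ≤ normalizer (M.map H.subtype : Set G) := by
      intro h hh
      refine mem_normalizer_iff.2 fun n => ⟨?_, ?_⟩
      · rintro ⟨m, hm, rfl⟩
        exact ⟨_, hM.conj_mem m hm ⟨h, hh⟩, rfl⟩
      · rintro ⟨m, hm, e⟩
        refine ⟨_, hM.conj_mem m hm ⟨h, hh⟩⁻¹, ?_⟩
        change h⁻¹ * m * h⁻¹⁻¹ = n
        rw [show (m : G) = h * n * h⁻¹ from e]; group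
    refine hloc ⟨r, _, hr, hP, P0, le_antisymm hle fun g hg => ?_⟩
    by_contra ga
    obtain ⟨K, hK, eK⟩ := exists_PF two a (M.map H.subtype)
      (by rintro _ ⟨m, -, rfl⟩; exact m.2)
      (fun g ga => cg_eq_of_le fun t ht => (mem_normalizer_iff.1 (hle ga) t).1 ht)
    have K1 : K a = M.map H.subtype := by simpa [cg_one] using eK 1
    obtain ⟨n, hn, nm⟩ := hK.moves two (fun x => by
      obtain ⟨s, rfl⟩ := tr x
      rw [eK]
      exact fun e => P0 ((map_eq_bot_iff_of_injective _ (MulAut.conj s).injective).1 e))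
      (show a ≠ g • a from fun e => ga e.symm)
    refine nm (hK.fix _ n ?_)
    rw [eK, cg_eq_of_le fun t ht => (mem_normalizer_iff.1 hg t).1 ht, ← K1]
    exact hn
  -- a simple factor is normal
  have fac : ∀ A : Subgroup H, A.Normal → A ≠ ⊥ → ∃ T : Subgroup H, T ≤ A ∧ T.Normal ∧
      IsSimpleGroup T ∧ ¬ IsMulCommutative T := by
    intro A hA h0
    obtain ⟨M, hle, hM, M0, hmin⟩ := exists_min_le A hA h0
    obtain ⟨T, hT⟩ := CfsgH6.exists_isSimpleFactor M hM M0 hmin (nab M hM M0 hmin)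
    refine ⟨T, hT.le.trans hle, ?_, hT.simple, hT.not_comm⟩
    by_contra hn
    have sT : IsSimpleGroup (T.map H.subtype) :=
      haveI := hT.simple
      (T.equivMapOfInjective H.subtype H.subtype_injective).symm.isSimpleGroup
    have ncT : NC (T.map H.subtype) := by
      by_contra h
      refine hT.not_comm ⟨⟨fun u v => Subtype.ext (Subtype.ext ?_)⟩⟩
      by_contra ne
      exact h ⟨_, ⟨u, u.2, rfl⟩, _, ⟨v, v.2, rfl⟩, ne⟩
    refine P2 (fun x => {U | ∃ g : G, g • a = x ∧ U = cg g (T.map H.subtype)})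
      ⟨?_, ?_, ?_, ?_, ?_, ?_, ?_⟩
    · rintro _ _ ⟨g, rfl, rfl⟩ t ht
      obtain ⟨m, -, e⟩ := mem_cg.1 ht
      have : (g⁻¹ * t * g) • a = a := e ▸ m.2
      rwa [mul_smul, mul_smul, inv_smul_eq_iff] at this
    · rintro g _ _ ⟨s, rfl, rfl⟩
      exact ⟨g * s, mul_smul _ _ _, cg_cg _ _ _⟩
    · rintro _ _ ⟨g, rfl, rfl⟩
      exact cg_simple sT g
    · rintro _ _ ⟨g, rfl, rfl⟩
      exact ncT.cg g
    · rintro _ _ ⟨g, rfl, rfl⟩ _ ⟨s, e, rfl⟩ ne t ht u hu
      have hh : s⁻¹ * g ∈ H := by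
        change (s⁻¹ * g) • a = a
        rw [mul_smul, ← e, inv_smul_smul]
      obtain ⟨t', ht', et⟩ := mem_cg.1 ht
      obtain ⟨u', hu', eu⟩ := mem_cg.1 hu
      rcases hT.dich ⟨_, hh⟩ with h | h
      · refine absurd ?_ ne
        have : cg (s⁻¹ * g) (T.map H.subtype) = T.map H.subtype := cg_eq_of_le (by
          rintro _ ⟨m, hm, rfl⟩
          exact ⟨_, h m hm, rfl⟩)
        conv_rhs => rw [← this, cg_cg, mul_inv_cancel_left]
      · have := congrArg Subtype.val (h t' ht' u' hu').eq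
        change s⁻¹ * g * t' * (s⁻¹ * g)⁻¹ * u' = u' * (s⁻¹ * g * t' * (s⁻¹ * g)⁻¹) at this
        rw [show (t' : G) = g⁻¹ * t * g from et, show (u' : G) = s⁻¹ * u * s from eu] at this
        calc t * u = s * (s⁻¹ * g * (g⁻¹ * t * g) * (s⁻¹ * g)⁻¹ * (s⁻¹ * u * s)) * s⁻¹ := by group
          _ = u * t := by rw [this]; group
    · rintro _ _ ⟨g, rfl, rfl⟩ _ ⟨s, e, rfl⟩
      exact ⟨s * g⁻¹, by rw [mul_smul, inv_smul_smul, e], by rw [cg_cg, inv_mul_cancel_right]⟩
    · intro x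
      obtain ⟨s, rfl⟩ := tr x
      by_contra h
      push Not at h
      refine hn ⟨fun t ht g => ?_⟩
      have := h _ ⟨s * g, by rw [mul_smul, show (g : G) • a = a from g.2], rfl⟩ _ ⟨s, rfl, rfl⟩
      have h3 : s * (g * t * (g : G)⁻¹) * s⁻¹ ∈ cg (s * g) (T.map H.subtype) :=
        mem_cg.2 ⟨t, ht, by simp [mul_assoc]⟩
      rw [this, mem_cg] at h3
      obtain ⟨m, hm, e⟩ := h3
      have : m = g * t * g⁻¹ := Subtype.ext (by simpa [mul_assoc] using e)
      exact this ▸ hm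
  obtain ⟨T, -, Tn, Ts, Tc⟩ := fac ⊤ inferInstance Hnt
  obtain ⟨U, Ule, Un, Us, Uc⟩ := fac (centralizer (T : Set H)) inferInstance
    fun e => hno ⟨T, Tn, Ts, Tc, e⟩
  have fam : ∀ T : Subgroup H, T.Normal → IsSimpleGroup T → ¬ IsMulCommutative T →
      ∃ K : Ω → Subgroup G, PF K ∧ (∀ g : G, K (g • a) = cg g (T.map H.subtype)) ∧
        (∀ x, IsSimpleGroup (K x)) ∧ ∀ x, NC (K x) := by
    intro T Tn Ts Tc
    obtain ⟨K, hK, eK⟩ := exists_PF two a (T.map H.subtype)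
      (by rintro _ ⟨m, -, rfl⟩; exact m.2)
      (fun g ga => cg_eq_of_le (by
        rintro _ ⟨m, hm, rfl⟩
        exact ⟨_, Tn.conj_mem m hm ⟨g, ga⟩, rfl⟩))
    refine ⟨K, hK, eK, fun x => ?_, fun x => ?_⟩ <;> obtain ⟨s, rfl⟩ := tr x <;> rw [eK]
    · exact cg_simple
        (T.equivMapOfInjective H.subtype H.subtype_injective).symm.isSimpleGroup s
    · refine NC.cg ?_ s
      by_contra h
      refine Tc ⟨⟨fun u v => Subtype.ext (Subtype.ext ?_)⟩⟩
      by_contra ne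
      exact h ⟨_, ⟨u, u.2, rfl⟩, _, ⟨v, v.2, rfl⟩, ne⟩
  obtain ⟨K, hK, eK, sK, cK⟩ := fam T Tn Ts Tc
  obtain ⟨N, hN, eN, sN, cN⟩ := fam U Un Us Uc
  have comm : ∀ x, ∀ k ∈ K x, ∀ n ∈ N x, k * n = n * k := by
    intro x k hk n hn
    obtain ⟨s, rfl⟩ := tr x
    rw [eK, mem_cg] at hk
    rw [eN, mem_cg] at hn
    obtain ⟨t, ht, et⟩ := hk
    obtain ⟨u, hu, eu⟩ := hn
    have := congrArg Subtype.val (mem_centralizer_iff.1 (Ule hu) t ht)
    change (t : G) * u = u * t at this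
    rw [show (t : G) = s⁻¹ * k * s from et, show (u : G) = s⁻¹ * n * s from eu] at this
    calc k * n = s * (s⁻¹ * k * s * (s⁻¹ * n * s)) * s⁻¹ := by group
      _ = n * k := by rw [this]; group
  rcases SR_or hK hN comm two sK sN with h | h
  · exact P1 K N hK hN comm sK sN cK cN h
  · exact P1 N K hN hK (fun x n hn k hk => (comm x k hk n hn).symm) sN sK cN cK h

end CfsgOA
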