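import Cfsg.Agent.H4.OA3

/-!
Abstract invariant linear spaces; a component determines its point.
-/

set_option autoImplicit false

namespace CfsgOA

open MulAction Subgroup

variable {G Ω : Type*} [Group G] [MulAction G Ω]

/-- An invariant linear space on `Ω` with more than one line; `col x y z`: `z` is on line `xy`. -/
structure LS (G : Type*) {Ω : Type*} [Group G] [MulAction G Ω] (col : Ω → Ω → Ω → Prop) :
    Prop where
  left : ∀ x y, col x y x
  right : ∀ x y, col x y y
  eq : ∀ {x y z w}, x ≠ y → z ≠ w → col x y z → col x y w → ∀ u, col x y u ↔ col z w u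
  smul : ∀ (g : G) {x y z}, col x y z → col (g • x) (g • y) (g • z)
  ex : ∀ {x y}, x ≠ y → ∃ z, ¬ col x y z

/-- An element fixing all lines through two points is trivial. -/
theorem LS.two_centres [FaithfulSMul G Ω] {col : Ω → Ω → Ω → Prop} (L : LS G col)
    (two : Two G Ω) {x y : Ω} (xy : x ≠ y) {k : G} (kx : k • x = x) (ky : k • y = y)
    (lx : ∀ z, col x z (k • z)) (ly : ∀ z, col y z (k • z)) : k = 1 := by
  have off : ∀ z, ¬ col x y z → k • z = z := by
    intro z hz
    by_contra ne
    have zx : x ≠ z := fun e => hz (e ▸ L.left x y)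
    have zy : y ≠ z := fun e => hz (e ▸ L.right x y)
    have e1 := L.eq zx ne (lx z) (L.right _ _)
    have e2 := L.eq zy ne (ly z) (L.right _ _)
    have e3 := L.eq zx xy (L.left _ _) ((e1 y).2 ((e2 y).1 (L.left _ _)))
    exact hz ((e3 z).1 (L.right _ _))
  obtain ⟨z, hz⟩ := L.ex xy
  refine eq_of_smul_eq_smul fun w : Ω => ?_
  rw [one_smul]
  by_contra ne
  have hw : col x y w := by
    by_contra h
    exact ne (off w h)
  have wx : w ≠ x := fun e => ne (e ▸ kx)
  have wy : w ≠ y := fun e => ne (e ▸ ky)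
  have zw : z ≠ w := fun e => hz (e ▸ hw)
  obtain ⟨g, gx, gy⟩ := two x y z w xy zw
  have hu : col z w (g • w) := by
    have := L.smul g hw
    rwa [gx, gy] at this
  have uz : g • w ≠ z := fun e => wx ((smul_left_cancel_iff g).1 (e.trans gx.symm))
  have uw : g • w ≠ w := fun e => wy ((smul_left_cancel_iff g).1 (e.trans gy.symm))
  generalize g • w = u at hu uz uw
  have uoff : ¬ col x y u := fun h => by
    have e1 := L.eq xy uw h hw
    have e2 := L.eq zw uw hu (L.right _ _)
    exact hz ((e1 z).2 ((e2 z).1 (L.left _ _)))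
  have e3 := L.eq zw uz.symm (L.left _ _) hu
  have k1 : col z u (k • w) := by
    have := L.smul k ((e3 w).1 (L.right _ _))
    rwa [off z hz, off u uoff] at this
  have k2 : col x y (k • w) := by
    have := L.smul k hw
    rwa [kx, ky] at this
  have e4 := L.eq xy ne k2 hw
  have e5 := L.eq zw ne ((e3 _).2 k1) (L.right _ _)
  exact hz ((e4 z).2 ((e5 z).1 (L.left _ _)))

variable {C : Ω → Set (Subgroup G)}

theorem cg_inj (g : G) : Function.Injective (cg g : Subgroup G → Subgroup G) := fun T U e => by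
  rw [← cg_one T, ← cg_one U, ← inv_mul_cancel g, ← cg_cg, ← cg_cg, e]

theorem CF.cj' (h : CF C) {g : G} {x y : Ω} (e : g • x = y) {T : Subgroup G} (hT : T ∈ C x) :
    cg g T ∈ C y := e ▸ h.cj g x T hT

theorem CF.cj_iff (h : CF C) {g : G} {x : Ω} {T : Subgroup G} :
    cg g T ∈ C (g • x) ↔ T ∈ C x := by
  refine ⟨fun hT => ?_, h.cj g x T⟩
  have := h.cj g⁻¹ _ _ hT
  rwa [cg_cg, inv_mul_cancel, cg_one, inv_smul_smul] at this

theorem CF.image (h : CF C) (g : G) (x : Ω) : cg g '' C x = C (g • x) := by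
  ext U
  refine ⟨by rintro ⟨T, hT, rfl⟩; exact h.cj g x T hT, fun hU => ⟨cg g⁻¹ U, ?_, ?_⟩⟩
  · simpa using h.cj g⁻¹ _ _ hU
  · rw [cg_cg, mul_inv_cancel, cg_one]

/-- a component normalises every component at the same point -/
theorem CF.cg_eq (h : CF C) {x : Ω} {T U : Subgroup G} (hT : T ∈ C x) (hU : U ∈ C x) {t : G}
    (ht : t ∈ T) : cg t U = U := by
  ext u
  rw [mem_cg]
  by_cases e : T = U
  · subst e
    exact ⟨fun hu => by simpa [mul_assoc] using T.mul_mem (T.mul_mem ht hu) (T.inv_mem ht),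
      fun hu => T.mul_mem (T.mul_mem (T.inv_mem ht) hu) ht⟩
  · constructor
    · intro hu
      have := h.comm x T hT U hU e t ht _ hu
      have e2 : u = t⁻¹ * u * t := by
        calc u = t * (t⁻¹ * u * t) * t⁻¹ := by group
          _ = _ := by rw [this]; group
      exact e2 ▸ hu
    · intro hu
      rw [mul_assoc, ← h.comm x T hT U hU e t ht u hu, inv_mul_cancel_left]
      exact hu

theorem CF.exists_ne_one (h : CF C) {x : Ω} {T : Subgroup G} (hT : T ∈ C x) :
    ∃ t ∈ T, t ≠ 1 := by
  obtain ⟨a, ha, b, -, ab⟩ := h.nc x T hT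
  exact ⟨a, ha, fun e => ab (by rw [e, one_mul, mul_one])⟩

/-- A component determines its point. -/
theorem CF.pt_eq [Finite G] [FaithfulSMul G Ω] (h : CF C) (two : Two G Ω) {x y : Ω}
    {T : Subgroup G} (hx : T ∈ C x) (hy : T ∈ C y) : x = y := by
  by_contra xy
  have card : ∀ {x y z w : Ω}, x ≠ y → z ≠ w → (C z ∩ C w).ncard = (C x ∩ C y).ncard := by
    intro x y z w xy zw
    obtain ⟨g, rfl, rfl⟩ := two x y z w xy zw
    rw [← h.image, ← h.image, ← Set.image_inter (cg_inj g),
      Set.ncard_image_of_injective _ (cg_inj g)]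
  have L : LS G fun x y z => C x ∩ C y ⊆ C z := by
    refine ⟨fun _ _ => Set.inter_subset_left, fun _ _ => Set.inter_subset_right, ?_, ?_, ?_⟩
    · intro x y z w xy zw hz hw u
      rw [Set.eq_of_subset_of_ncard_le (Set.subset_inter hz hw) (card xy zw).le]
    · intro g x y z hz
      rw [← h.image, ← h.image, ← h.image, ← Set.image_inter (cg_inj g)]
      exact Set.image_mono hz
    · intro u v uv
      obtain ⟨g, rfl, rfl⟩ := two x y u v xy uv
      by_contra hh
      push Not at hh
      obtain ⟨t, ht, t1⟩ := h.exists_ne_one (h.cj g x T hx)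
      exact t1 (eq_of_smul_eq_smul fun z : Ω => by
        rw [one_smul]; exact h.fix z _ (hh z ⟨h.cj g x T hx, h.cj g y T hy⟩) t ht)
  obtain ⟨t, ht, t1⟩ := h.exists_ne_one hx
  refine t1 (L.two_centres two xy (h.fix x T hx t ht) (h.fix y T hy t ht) ?_ ?_)
  · intro z U hU
    exact h.cg_eq hx hU.1 ht ▸ h.cj t z U hU.2
  · intro z U hU
    exact h.cg_eq hy hU.1 ht ▸ h.cj t z U hU.2

/-- The normaliser of a component fixes its point. -/
theorem CF.fix_of_cg [Finite G] [FaithfulSMul G Ω] (h : CF C) (two : Two G Ω) {x : Ω}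
    {T : Subgroup G} (hx : T ∈ C x) {g : G} (e : cg g T ∈ C x) : g • x = x :=
  h.pt_eq two (h.cj g x T hx) e

end CfsgOA
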