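import Cfsg.Agent.H4.OA4

/-!
Components with trivial intersections, case I.
-/

set_option autoImplicit false

namespace CfsgOA

open MulAction Subgroup CfsgQR

variable {G Ω : Type*} [Group G] [MulAction G Ω] {C : Ω → Set (Subgroup G)}

/-- components at different points meet trivially -/
def CTI (C : Ω → Set (Subgroup G)) : Prop :=
  ∀ x y, x ≠ y → ∀ T ∈ C x, ∀ U ∈ C y, T ⊓ U = ⊥

theorem CF.cen (h : CF C) (ti : CTI C) {x : Ω} {T : Subgroup G} (hT : T ∈ C x) {k c : G}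
    (hk : k ∈ T) (k1 : k ≠ 1) (hc : c * k = k * c) : c • x = x := by
  by_contra ne
  have h1 : k ∈ cg c T := mem_cg.2 (by rwa [mul_assoc, ← hc, inv_mul_cancel_left])
  have h2 : k ∈ cg c T ⊓ T := ⟨h1, hk⟩
  rw [ti _ _ ne _ (h.cj c x T hT) T hT, mem_bot] at h2
  exact k1 h2

theorem CF.moves [FaithfulSMul G Ω] (h : CF C) (two : Two G Ω) {x y : Ω} (xy : x ≠ y) :
    ∃ T ∈ C x, ∃ n ∈ T, n • y ≠ y := by
  by_contra hh
  push Not at hh
  obtain ⟨T, hT, -⟩ := h.two x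
  obtain ⟨t, ht, t1⟩ := h.exists_ne_one hT
  refine t1 (eq_of_smul_eq_smul fun z : Ω => ?_)
  rw [one_smul]
  by_cases zx : x = z
  · exact zx ▸ h.fix x T hT t ht
  obtain ⟨g, gx, gz⟩ := two x z x y zx xy
  have := hh _ (h.cj' gx hT) (g * t * g⁻¹) (mem_cg.2 (by simpa [mul_assoc] using ht))
  rw [← gz, mul_smul, mul_smul, inv_smul_smul] at this
  exact (smul_left_cancel_iff g).1 this

/-- An element fixing `x` and the orbit of `y` under a component moving `y` centralises it. -/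
theorem CF.cen_of_fix_orbit (h : CF C) {x y : Ω} {T : Subgroup G} (hT : T ∈ C x)
    (mv : ∃ n ∈ T, n • y ≠ y) {b : G} (bx : b • x = x) (fx : ∀ n ∈ T, b • n • y = n • y) :
    ∀ n ∈ T, b * n = n * b := by
  let R : Subgroup G :=
    { carrier := {r | r ∈ T ∧ ∀ m ∈ T, r • m • y = m • y}
      mul_mem' := fun {r s} hr hs => ⟨T.mul_mem hr.1 hs.1, fun m hm => by
        rw [mul_smul, hs.2 m hm, hr.2 m hm]⟩
      one_mem' := ⟨T.one_mem, fun m _ => one_smul _ _⟩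
      inv_mem' := fun {r} hr => ⟨T.inv_mem hr.1, fun m hm => by
        rw [inv_smul_eq_iff, hr.2 m hm]⟩ }
  have hR : ∀ r ∈ T, (∀ m ∈ T, r • m • y = m • y) → r = 1 := by
    rcases simp_dich (h.simple x T hT) R (fun r hr => hr.1) (fun s hs r hr =>
      ⟨T.mul_mem (T.mul_mem hs hr.1) (T.inv_mem hs), fun m hm => by
        have := hr.2 (s⁻¹ * m) (T.mul_mem (T.inv_mem hs) hm)
        rw [mul_smul] at this
        rw [mul_smul, mul_smul, this, smul_inv_smul]⟩) with e | e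
    · intro r hr hf
      have : r ∈ R := ⟨hr, hf⟩
      rwa [e, mem_bot] at this
    · obtain ⟨n, hn, ny⟩ := mv
      have : n ∈ R := e ▸ hn
      exact absurd (by simpa using this.2 1 T.one_mem) ny
  have key : ∀ n ∈ T, ∀ m ∈ T, (b * n * b⁻¹) • m • y = n • m • y := fun n hn m hm => by
    have h1 : b⁻¹ • m • y = m • y := by rw [inv_smul_eq_iff, fx m hm]
    rw [mul_smul, mul_smul, h1, ← mul_smul n, fx _ (T.mul_mem hn hm)]
  by_cases e : cg b T = T
  · intro n hn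
    have h1 : b * n * b⁻¹ ∈ T := by
      rw [← e]; exact mem_cg.2 (by simpa [mul_assoc] using hn)
    have := hR (n⁻¹ * (b * n * b⁻¹)) (T.mul_mem (T.inv_mem hn) h1) fun m hm => by
      rw [mul_smul, key n hn m hm, inv_smul_smul]
    calc b * n = n * (n⁻¹ * (b * n * b⁻¹)) * b := by group
      _ = n * b := by rw [this, mul_one]
  · exfalso
    obtain ⟨u, hu, v, hv, uv⟩ := h.nc x T hT
    have hc := h.comm x _ (h.cj' bx hT) T hT e (b * u * b⁻¹)
      (mem_cg.2 (by simpa [mul_assoc] using hu)) v hv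
    have := hR ((v * u)⁻¹ * (u * v)) (T.mul_mem (T.inv_mem (T.mul_mem hv hu)) (T.mul_mem hu hv))
      fun m hm => by
        have e1 := key u hu _ (T.mul_mem hv hm)
        rw [mul_smul v] at e1
        rw [mul_smul, inv_smul_eq_iff, mul_smul, mul_smul, ← key u hu m hm, ← e1,
          ← mul_smul v (b * u * b⁻¹), ← hc, mul_smul _ v]
    exact uv (inv_mul_eq_one.1 this).symm

/-- elements of order at most two of `T` fixing `y` -/
def JJ (T : Subgroup G) (y : Ω) : Set G := {k | k ∈ T ∧ k * k = 1 ∧ k • y = y}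

theorem conj_sq {k : G} (h : k * k = 1) (g : G) : g * k * g⁻¹ * (g * k * g⁻¹) = 1 := by
  calc g * k * g⁻¹ * (g * k * g⁻¹) = g * (k * k) * g⁻¹ := by group
    _ = 1 := by rw [h]; group

theorem conj_fix {k : G} {y : Ω} (h : k • y = y) (g : G) : (g * k * g⁻¹) • g • y = g • y := by
  rw [mul_smul, mul_smul, inv_smul_smul, h]

theorem conj_inj (g : G) : Function.Injective fun k : G => g * k * g⁻¹ := fun a b e => by
  simpa using e

theorem CF.caseI [Finite G] [FaithfulSMul G Ω] (two : Two G Ω) (hC : CF C)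
    (ti : ∀ x y, x ≠ y → ∀ T ∈ C x, ∀ U ∈ C y, T ⊓ U = ⊥)
    (s1 : ∃ x, ∃ T ∈ C x, ∃ t ∈ T, t * t = 1 ∧ t ≠ 1 ∧ ∃ y, y ≠ x ∧ t • y = y)
    (hI : ∀ x y, x ≠ y → ∀ T ∈ C x, ∀ k ∈ T, k * k = 1 → k • y = y → ∀ U ∈ C y, cg k U = U) :
    False := by
  classical
  obtain ⟨x0, T0, hT0, t0, ht0, t2, t1, y0, y0x, ty⟩ := s1
  -- a maximiser
  obtain ⟨x, y, T, xy, hT, ⟨M, hM, TM, mv⟩, hmax⟩ : ∃ x y T, x ≠ y ∧ T ∈ C x ∧
      (∃ M ∈ C x, T ≠ M ∧ ∃ n ∈ M, n • y ≠ y) ∧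
      ∀ u v, u ≠ v → ∀ U ∈ C u, (JJ U v).ncard ≤ (JJ T y).ncard := by
    let P : ℕ → Prop := fun n => ∃ x y T, x ≠ y ∧ T ∈ C x ∧ (JJ T y).ncard = n
    have bd : ∀ n, P n → n ≤ Nat.card G := by
      rintro n ⟨x, y, T, -, -, rfl⟩
      exact Set.ncard_le_card _
    obtain ⟨x, y, T, xy, hT, e⟩ : P (Nat.findGreatest P (Nat.card G)) :=
      Nat.findGreatest_spec (bd _ ⟨x0, y0, T0, y0x.symm, hT0, rfl⟩)
        ⟨x0, y0, T0, y0x.symm, hT0, rfl⟩
    have hmax : ∀ u v, u ≠ v → ∀ U ∈ C u, (JJ U v).ncard ≤ (JJ T y).ncard := fun u v uv U hU =>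
      e ▸ Nat.le_findGreatest (bd _ ⟨u, v, U, uv, hU, rfl⟩) ⟨u, v, U, uv, hU, rfl⟩
    obtain ⟨M, hM, mv⟩ := hC.moves two xy
    by_cases TM : T = M
    swap
    · exact ⟨x, y, T, xy, hT, ⟨M, hM, TM, mv⟩, hmax⟩
    subst TM
    obtain ⟨T', hT', ne⟩ : ∃ T' ∈ C x, T ≠ T' := by
      obtain ⟨A, hA, B, hB, AB⟩ := hC.two x
      by_cases e : T = A
      · exact ⟨B, hB, e ▸ AB⟩
      · exact ⟨A, hA, e⟩
    by_cases mv' : ∃ n ∈ T', n • y ≠ y
    · exact ⟨x, y, T, xy, hT, ⟨T', hT', ne, mv'⟩, hmax⟩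
    push Not at mv'
    refine ⟨x, y, T', xy, hT', ⟨T, hT, ne.symm, mv⟩, fun u v uv U hU => (hmax u v uv U hU).trans ?_⟩
    obtain ⟨g, -, rfl⟩ := hC.trans x T hT T' hT'
    refine Set.ncard_le_ncard_of_injOn (fun k => g * k * g⁻¹) (fun k hk => ?_)
      (conj_inj g).injOn (Set.toFinite _)
    have : g * k * g⁻¹ ∈ cg g T := mem_cg.2 (by simpa [mul_assoc] using hk.1)
    exact ⟨this, conj_sq hk.2.1 g, mv' _ this⟩
  have key : ∀ n ∈ M, n • y ≠ y → ∀ U ∈ C y, ∀ c ∈ JJ U (n • y), c • x = x := by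
    intro n hn ny U hU c hc
    by_contra cx
    have h1 : (JJ T y).ncard ≤ (JJ U (n • y) \ {1}).ncard := by
      refine Set.ncard_le_ncard_of_injOn (fun k => k * c * k⁻¹) (fun k hk => ⟨⟨?_, ?_, ?_⟩, ?_⟩)
        (fun k hk k' hk' e => ?_) (Set.toFinite _)
      · rw [← hI x y xy T hT k hk.1 hk.2.1 hk.2.2 U hU]
        exact mem_cg.2 (by simpa [mul_assoc] using hc.1)
      · exact conj_sq hc.2.1 k
      · have : k • n • y = n • y := by
          rw [← mul_smul, hC.comm x T hT M hM TM k hk.1 n hn, mul_smul, hk.2.2]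
        have h2 := conj_fix hc.2.2 k
        rwa [this] at h2
      · intro e
        have : c = 1 := by simpa using e
        exact cx (by rw [this, one_smul])
      · by_contra ne
        refine cx (hC.cen ti hT (T.mul_mem (T.inv_mem hk'.1) hk.1)
          (fun h => ne (inv_mul_eq_one.1 h).symm) ?_)
        have e' : k * c * k⁻¹ = k' * c * k'⁻¹ := e
        calc c * (k'⁻¹ * k) = k'⁻¹ * (k' * c * k'⁻¹) * k := by group
          _ = k'⁻¹ * k * c := by rw [← e']; group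
    have h2 := Set.ncard_sdiff_singleton_lt_of_mem
      (show (1 : G) ∈ JJ U (n • y) from ⟨U.one_mem, one_mul _, one_smul _ _⟩) (Set.toFinite _)
    have h3 := hmax y (n • y) (Ne.symm ny) U hU
    omega
  let S : Ω → Set G := fun z => {c | ∃ U ∈ C y, c ∈ JJ U z}
  have key2 : ∀ n ∈ M, ∀ c ∈ S x, c • n • y = n • y := by
    intro n hn c hc
    by_cases ny : n • y = y
    · obtain ⟨U, hU, hc⟩ := hc
      rw [ny]; exact hC.fix y U hU c hc.1
    have le : S (n • y) ⊆ S x := by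
      rintro c ⟨U, hU, hc⟩
      exact ⟨U, hU, hc.1, hc.2.1, key n hn ny U hU c hc⟩
    obtain ⟨g, gy, gx⟩ := two y x y (n • y) xy.symm (Ne.symm ny)
    have := Set.eq_of_subset_of_ncard_le le (Set.ncard_le_ncard_of_injOn (fun k => g * k * g⁻¹)
      (by
        rintro k ⟨U, hU, hk⟩
        exact ⟨_, hC.cj' gy hU, mem_cg.2 (by simpa [mul_assoc] using hk.1), conj_sq hk.2.1 g,
          gx ▸ conj_fix hk.2.2 g⟩) (conj_inj g).injOn (Set.toFinite _)) (Set.toFinite _)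
    rw [← this] at hc
    obtain ⟨U, -, hc⟩ := hc
    exact hc.2.2
  obtain ⟨g, gx, gy⟩ := two x0 y0 y x y0x.symm xy.symm
  have hb : g * t0 * g⁻¹ ∈ cg g T0 := mem_cg.2 (by simpa [mul_assoc] using ht0)
  have bx : (g * t0 * g⁻¹) • x = x := gy ▸ conj_fix ty g
  have b1 : g * t0 * g⁻¹ ≠ 1 := fun e => t1 (by simpa using e)
  have hc := hC.cen_of_fix_orbit hM mv bx fun n hn =>
    key2 n hn _ ⟨_, hC.cj' gx hT0, hb, conj_sq t2 g, bx⟩
  obtain ⟨n, hn, ny⟩ := mv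
  exact ny (hC.cen ti (hC.cj' gx hT0) hb b1 (hc n hn).symm)

end CfsgOA
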